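import Mathlib
import Cfsg.Agent.Orth.Simple

/-! Vanishing of first cohomology of some orthogonal groups over the field of two elements. -/

set_option autoImplicit false
set_option maxRecDepth 100000

namespace Cfsg.Agent.ULT.H1
open Cfsg.Agent.Orth QuadraticMap
open scoped commutatorElement

variable {V : Type*} [AddCommGroup V] [Module (ZMod 2) V] {Q : QuadraticForm (ZMod 2) V}

theorem z2 : ∀ {a : ZMod 2}, a ≠ 0 → a = 1 := by decide

theorem two0 : (2 : ZMod 2) = 0 := rfl

theorem pself (a : V) : polar Q a a = 0 := by rw [p_self, two0, zero_mul]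

theorem rf {a : V} (ha : Q a ≠ 0) (x : V) : (refl Q a).1 x = x + polar Q a x • a := by
  rw [refl_apply, z2 ha, inv_one, one_mul, ZModModule.sub_eq_add]

theorem rr {a b : V} (ha : Q a ≠ 0) (hb : Q b ≠ 0) (h : polar Q a b = 1) (x : V) :
    (refl Q a * refl Q b).1 x = x + polar Q a x • a + polar Q b x • (a + b) := by
  rw [OG.mul_apply, rf hb, map_add, map_smul, rf ha, rf ha, h]; module

theorem rcan (a : V) (g : OG Q) : refl Q a * (refl Q a * g) = g := by
  rw [← mul_assoc, refl_mul_self, one_mul]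

theorem cube {a b : V} (ha : Q a ≠ 0) (hb : Q b ≠ 0) (h : polar Q a b = 1) :
    refl Q a * refl Q b * (refl Q a * refl Q b * (refl Q a * refl Q b)) = 1 := by
  have e : (refl Q a * refl Q b).1 a = b := by
    rw [rr ha hb h, pself, polar_comm, h]
    linear_combination (norm := module) two0 • a
  have := refl_conj (refl Q a * refl Q b) a
  rw [e, mul_inv_rev, refl_inv, refl_inv] at this
  calc _ = refl Q a * refl Q b * refl Q a * (refl Q b * refl Q a) * refl Q b := by
        simp only [mul_assoc]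
    _ = 1 := by rw [this, refl_mul_self]

theorem rr_mem {a b : V} (ha : Q a ≠ 0) (hb : Q b ≠ 0) (h : polar Q a b = 1) :
    refl Q a * refl Q b ∈ commutator (OG Q) := by
  rw [eq_inv_of_mul_eq_one_left (cube ha hb h)]
  refine inv_mem ?_
  have : refl Q a * refl Q b * (refl Q a * refl Q b) = ⁅refl Q a, refl Q b⁆ := by
    simp [commutatorElement_def, mul_assoc]
  exact this ▸ Subgroup.commutator_mem_commutator (Subgroup.mem_top _) (Subgroup.mem_top _)

section
variable {f : OG Q → V}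
  (hf : ∀ g ∈ commutator (OG Q), ∀ h ∈ commutator (OG Q), f (g * h) = f g + g.1 (f h))
include hf

theorem f_one : f 1 = 0 := by simpa using hf 1 (one_mem _) 1 (one_mem _)

theorem f_edge {a b : V} (ha : Q a ≠ 0) (hb : Q b ≠ 0) (h : polar Q a b = 1) :
    ∃ x y : ZMod 2, f (refl Q a * refl Q b) = x • a + y • (a + b) := by
  have h1 := rr_mem ha hb h
  have := f_one hf
  rw [← cube ha hb h, hf _ h1 _ (mul_mem h1 h1), hf _ h1 _ h1] at this
  generalize f (refl Q a * refl Q b) = c at this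
  simp only [rr ha hb h, polar_add_right, p_smul_right, pself, h, polar_comm Q b a] at this
  refine ⟨polar Q a c + polar Q b c, polar Q a c, ?_⟩
  linear_combination (norm := module) this - two0 • c - two0 • ((3 * polar Q a c + 3 * polar Q b c) • a)
    - two0 • ((polar Q a c + 2 * polar Q b c) • b)

theorem f_path {a b c : V} (ha : Q a ≠ 0) (hb : Q b ≠ 0) (hc : Q c ≠ 0) (h : polar Q a b = 1)
    (h' : polar Q b c = 1) (h0 : polar Q a c = 0) {x y x' y' : ZMod 2}
    (e : f (refl Q a * refl Q b) = x • a + y • (a + b))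
    (e' : f (refl Q b * refl Q c) = x' • b + y' • (b + c)) : y = x' := by
  have h1 := hf _ (rr_mem ha hb h) _ (rr_mem hb hc h')
  have h2 := mul_mem (rr_mem ha hb h) (rr_mem hb hc h')
  rw [show refl Q a * refl Q b * (refl Q b * refl Q c) = refl Q a * refl Q c by
    rw [mul_assoc, ← mul_assoc (refl Q b), refl_mul_self, one_mul]] at h1 h2
  rw [e, e', rr ha hb h] at h1
  simp only [polar_add_right, p_smul_right, pself, h, h', h0] at h1
  replace h1 : f (refl Q a * refl Q c) = x • a + (y + x') • (a + b) + y' • c := by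
    linear_combination (norm := module) h1 + two0 • (y' • (a + b))
  by_cases hac : a = c
  · subst hac
    rw [refl_mul_self, f_one hf] at h1
    have := congrArg (polar Q a) h1
    simp only [polar_add_right, p_smul_right, pself, h, polar_zero_right] at this
    linear_combination -this - x' * two0
  have h3 : refl Q a * refl Q c * (refl Q a * refl Q c) = 1 := by
    have := refl_conj (refl Q a) c
    rw [refl_apply_of_orth h0, refl_inv] at this
    rw [← mul_assoc, this, refl_mul_self]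
  have h4 := hf _ h2 _ h2
  rw [h3, f_one hf, h1, OG.mul_apply, rf hc, rf ha] at h4
  simp only [polar_add_right, p_smul_right, pself, h, h', h0, polar_comm Q c a,
    polar_comm Q c b] at h4
  have h5 : (y + x') • (a - c) = 0 := by
    linear_combination (norm := module) -h4 - two0 • (x • a + (y + x') • (a + b + c) + y' • c)
  linear_combination (smul_eq_zero.mp h5).resolve_right (sub_ne_zero.mpr hac) - x' * two0

theorem h1_zero (hgen : ∀ G : Subgroup (OG Q), (∀ v, Q v ≠ 0 → refl Q v ∈ G) → G = ⊤)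
    {n : ℕ} (α β : Fin (n + 1) → V) (q : Fin (n + 1) → Fin (n + 1)) (hα : ∀ i, Q (α i) ≠ 0)
    (hq : ∀ i, polar Q (α i) (α (q i)) = 1 ∧ polar Q (α i) (α (q (q i))) = 0 ∧ (i ≠ 0 → q i < i))
    (hβ : ∀ i j, polar Q (α i) (β j) = if j = i then 1 else 0)
    (horb : ∀ S : Set V, (∀ i, α i ∈ S) → (∀ i, ∀ u ∈ S, polar Q (α i) u = 1 → u + α i ∈ S) →
      ∀ u, Q u ≠ 0 → u ∈ S) :
    ∃ v, ∀ g ∈ commutator (OG Q), f g = g.1 v - v := by
  choose x y hxy using fun i => f_edge hf (hα i) (hα (q i)) (hq i).1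
  have hy : ∀ i, y i = x (q i) := fun i =>
    f_path hf (hα _) (hα _) (hα _) (hq i).1 (hq _).1 (hq i).2.1 (hxy i) (hxy _)
  obtain ⟨v, hv⟩ : ∃ v, ∀ i, polar Q (α i) v = x i :=
    ⟨∑ j, x j • β j, fun i => by simp [p_sum_right, hβ]⟩
  let K : Subgroup (OG Q) :=
    { carrier := {g | g ∈ commutator (OG Q) ∧ f g = g.1 v - v}
      one_mem' := ⟨one_mem _, by simp [f_one hf]⟩
      mul_mem' := fun {g h} hg hh => ⟨mul_mem hg.1 hh.1, by
        rw [hf _ hg.1 _ hh.1, hg.2, hh.2, map_sub, OG.mul_apply]; abel⟩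
      inv_mem' := fun {g} hg => ⟨inv_mem hg.1, by
        have := hf _ (inv_mem hg.1) _ hg.1
        rw [inv_mul_cancel, f_one hf, hg.2, map_sub, OG.inv_apply_self] at this
        linear_combination (norm := module) -this⟩ }
  have h1 : ∀ i, refl Q (α 0) * refl Q (α i) ∈ K := by
    intro i
    induction i using WellFoundedLT.induction with
    | ind i ih =>
      by_cases h0 : i = 0
      · rw [h0, refl_mul_self]; exact one_mem _
      have : refl Q (α i) * refl Q (α (q i)) ∈ K := ⟨rr_mem (hα _) (hα _) (hq i).1, by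
        rw [hxy, rr (hα _) (hα _) (hq i).1, hv, hv, hy]; abel⟩
      simpa only [mul_inv_rev, refl_inv, mul_assoc, rcan] using
        mul_mem (ih _ ((hq i).2.2 h0)) (inv_mem this)
  have h2 : ∀ u, Q u ≠ 0 → refl Q (α 0) * refl Q u ∈ K := fun u hu =>
    horb {u | refl Q (α 0) * refl Q u ∈ K} h1 (fun i u hu e => by
      have := refl_conj (refl Q (α i)) u
      rw [rf (hα i), e, one_smul, refl_inv] at this
      change _ * refl Q _ ∈ K
      rw [← this]
      simpa only [mul_inv_rev, refl_inv, mul_assoc, rcan] using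
        mul_mem (mul_mem (h1 i) (inv_mem hu)) (h1 i)) u hu
  let N := Subgroup.closure {g | ∃ u, Q u ≠ 0 ∧ g = refl Q (α 0) * refl Q u}
  have hN : N ≤ K := (Subgroup.closure_le _).mpr (by rintro _ ⟨u, hu, rfl⟩; exact h2 u hu)
  have hm : ∀ u w, Q u ≠ 0 → Q w ≠ 0 → refl Q u * refl Q w ∈ N := fun u w hu hw => by
    simpa only [mul_inv_rev, refl_inv, mul_assoc, rcan] using
      mul_mem (inv_mem (Subgroup.subset_closure ⟨u, hu, rfl⟩ : _ ∈ N))
        (Subgroup.subset_closure ⟨w, hw, rfl⟩ : _ ∈ N)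
  haveI : N.Normal := ⟨fun a ha g => by
    refine Subgroup.closure_induction (fun a ha => ?_) (by simp) (fun a b _ _ h h' => ?_)
      (fun a _ h => ?_) ha
    · obtain ⟨u, hu, rfl⟩ := ha
      rw [← conj_mul, refl_conj, refl_conj]
      exact hm _ _ (by simp [hα]) (by simpa)
    · rw [← conj_mul]; exact mul_mem h h'
    · rw [← conj_inv]; exact inv_mem h⟩
  have h3 := hgen ((Subgroup.zpowers (QuotientGroup.mk' N (refl Q (α 0)))).comap
    (QuotientGroup.mk' N)) fun u hu => ⟨1, by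
      simp only [zpow_one, QuotientGroup.mk'_apply, QuotientGroup.eq, refl_inv]
      exact hm _ _ (hα 0) hu⟩
  have h4 : commutator (OG Q) ≤ N := Subgroup.commutator_le.mpr fun g _ h _ => by
    obtain ⟨k, hk⟩ := (h3.ge (Subgroup.mem_top g) :)
    obtain ⟨l, hl⟩ := (h3.ge (Subgroup.mem_top h) :)
    rw [← QuotientGroup.eq_one_iff, ← QuotientGroup.mk'_apply, map_commutatorElement, ← hk, ← hl]
    exact commutatorElement_eq_one_iff_commute.mpr (Commute.zpow_zpow_self _ _ _)
  exact ⟨v, fun g hg => (hN (h4 hg)).2⟩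

end

/-- vectors from bits -/
def vec {ι : Type} {k : ℕ} (e : ι → Fin k) (n : ℕ) (j : ι) : ZMod 2 :=
  if n.testBit (e j) then 1 else 0

theorem vec_xor {ι : Type} {k : ℕ} (e : ι → Fin k) (m n : ℕ) :
    vec e (m ^^^ n) = vec e m + vec e n := funext fun j => by
  simp only [vec, Nat.testBit_xor, Pi.add_apply]
  cases m.testBit (e j) <;> cases n.testBit (e j) <;> rfl

theorem exists_vec {ι : Type} {k : ℕ} {e : ι → Fin k} (he : Function.Injective e) (v : ι → ZMod 2) :
    ∃ n < 2 ^ k, vec e n = v := by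
  classical
  refine ⟨Nat.ofBits fun i => decide (∃ j, e j = i ∧ v j = 1), Nat.ofBits_lt_two_pow _,
    funext fun j => ?_⟩
  rw [vec, Nat.testBit_ofBits_lt _ _ (e j).2]
  by_cases h : v j = 0
  · simp [he.eq_iff, h]
  · simp [he.eq_iff, z2 h]

theorem main {ι : Type} [Fintype ι] [DecidableEq ι] {k n : ℕ} {e : ι → Fin k}
    (he : Function.Injective e) (Q : QuadraticForm (ZMod 2) (ι → ZMod 2))
    (hgen : ∀ G : Subgroup (OG Q), (∀ v, Q v ≠ 0 → refl Q v ∈ G) → G = ⊤)
    (a b : Fin (n + 1) → ℕ) (q : Fin (n + 1) → Fin (n + 1)) (D : ℕ)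
    (hα : ∀ i, Q (vec e (a i)) ≠ 0)
    (hq : ∀ i, polar Q (vec e (a i)) (vec e (a (q i))) = 1 ∧
      polar Q (vec e (a i)) (vec e (a (q (q i)))) = 0 ∧ (i ≠ 0 → q i < i))
    (hβ : ∀ i j, polar Q (vec e (a i)) (vec e (b j)) = if j = i then 1 else 0)
    (hD : ∀ m < 2 ^ k, Q (vec e m) ≠ 0 → (∃ i, m = a i) ∨ ∃ i, m ^^^ a i < 2 ^ k ∧
      D / 32 ^ (m ^^^ a i) % 32 < D / 32 ^ m % 32 ∧ Q (vec e (m ^^^ a i)) ≠ 0)
    (f : Cfsg.Omega (ZMod 2) ⇑Q → ι → ZMod 2)
    (hf : ∀ g h, f (g * h) = f g + Matrix.mulVec (((g : Cfsg.isometryGroup (ZMod 2) ⇑Q) :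
      GL ι (ZMod 2)) : Matrix ι ι (ZMod 2)) (f h)) :
    ∃ v, ∀ g, f g = Matrix.mulVec (((g : Cfsg.isometryGroup (ZMod 2) ⇑Q) :
      GL ι (ZMod 2)) : Matrix ι ι (ZMod 2)) v - v := by
  classical
  have hE : ∀ (g : Cfsg.Omega (ZMod 2) ⇑Q) x, Matrix.mulVec (((g : Cfsg.isometryGroup (ZMod 2) ⇑Q) :
      GL ι (ZMod 2)) : Matrix ι ι (ZMod 2)) x = (omegaEquiv Q g).1.1 x := fun _ _ => rfl
  simp only [hE] at hf ⊢
  generalize omegaEquiv Q = E at hf ⊢
  obtain ⟨v, hv⟩ := h1_zero (f := fun g => if h : g ∈ commutator (OG Q) then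
      f (E.symm ⟨g, h⟩) else 0) (fun g hg h hh => by
      simp only [dif_pos hg, dif_pos hh, dif_pos (mul_mem hg hh)]
      have := hf (E.symm ⟨g, hg⟩) (E.symm ⟨h, hh⟩)
      rwa [← map_mul, E.apply_symm_apply] at this)
    hgen (fun i => vec e (a i)) (fun i => vec e (b i)) q hα hq hβ fun S h1 h2 u hu => by
      obtain ⟨m, hm, rfl⟩ := exists_vec he u
      induction hd : D / 32 ^ m % 32 using Nat.strong_induction_on generalizing m with
      | h d ih =>
        obtain ⟨i, rfl⟩ | ⟨i, h3, h4, h5⟩ := hD m hm hu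
        · exact h1 i
        have h6 : vec e m = vec e (m ^^^ a i) + vec e (a i) := by
          rw [← vec_xor, Nat.xor_xor_cancel_right]
        rw [h6]
        refine h2 i _ (ih _ (hd ▸ h4) _ h3 h5 rfl) ?_
        have := q_add Q (vec e (m ^^^ a i)) (vec e (a i))
        rw [← h6, z2 hu, z2 h5, z2 (hα i), polar_comm] at this
        linear_combination -this - two0
  refine ⟨v, fun g => ?_⟩
  have := hv _ (E g).2
  simp only [dif_pos (E g).2, Subtype.coe_eta, MulEquiv.symm_apply_apply] at this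
  exact this

set_option synthInstance.maxSize 2000 in
theorem gen4 : ∀ G : Subgroup (OG (minusQ 1 (ZMod 2) 1 1)),
    (∀ v, minusQ 1 (ZMod 2) 1 1 v ≠ 0 → refl _ v ∈ G) → G = ⊤ := by
  intro G hG
  have hr : ∀ v, refl (minusQ 1 (ZMod 2) 1 1) v ∈ G := fun v => by
    by_cases hv : minusQ 1 (ZMod 2) 1 1 v = 0
    · rw [refl_of_Q_eq_zero hv]; exact G.one_mem
    · exact hG v hv
  refine eq_top_of_refl_eich (nd_minusQ 1 (by decide)) G hr fun u v => ?_
  by_cases h : minusQ 1 (ZMod 2) 1 1 u = 0 ∧ polar (minusQ 1 (ZMod 2) 1 1) u v = 0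
  swap
  · rw [eich_of_not h]; exact G.one_mem
  by_cases hv : minusQ 1 (ZMod 2) 1 1 v = 0
  swap
  · rw [eich_eq_refl_mul_refl h.1 h.2 hv]; exact mul_mem (hr _) (hr _)
  obtain rfl | rfl | rfl := (by decide +kernel : ∀ u v, minusQ 1 (ZMod 2) 1 1 u = 0 ∧
    polar (minusQ 1 (ZMod 2) 1 1) u v = 0 → minusQ 1 (ZMod 2) 1 1 v = 0 →
    u = 0 ∨ v = 0 ∨ v = (1 : ZMod 2) • u) u v h hv
  · rw [eich_zero_left]; exact G.one_mem
  · rw [eich_zero_right]; exact G.one_mem
  · rw [eich_smul_self h.1]; exact G.one_mem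

end Cfsg.Agent.ULT.H1
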