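import Mathlib
import Cfsg.Agent.Ree.Easy
import Cfsg.Agent.Transfer.Focal
import Cfsg.Agent.Comp2.Cores
import Cfsg.Agent.Core.Basic

/-! The derived subgroup of the smallest Ree group. -/

set_option autoImplicit false

namespace Cfsg.Agent.ULT.Ree3
open Cfsg.Agent.Ree MulAction

theorem simple_of_dvd {G : Type*} [Group G] [Finite G] {K : Subgroup G} [K.Normal] {p n : ℕ}
    (hp : p.Prime) (hn : p.Coprime n) (hK : Nat.card K = p * n)
    (h : ∀ N : Subgroup G, N.Normal → N ≠ ⊥ → p * n ∣ Nat.card N) : IsSimpleGroup K := by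
  haveI := Fact.mk hp
  obtain ⟨x, hx⟩ := exists_prime_orderOf_dvd_card' (G := K) p (hK ▸ dvd_mul_right _ _)
  have hx1 : x ≠ 1 := fun e => hp.one_lt.ne (by rw [← hx, e, orderOf_one])
  haveI : Nontrivial K := ⟨x, 1, hx1⟩
  refine ⟨fun N hN => ?_⟩
  by_cases h7 : p ∣ Nat.card N
  · right
    have h1 : N.index ∣ n := by
      obtain ⟨k, hk⟩ := h7
      have := N.card_mul_index
      rw [hK, hk, mul_assoc] at this
      exact Dvd.intro_left _ (Nat.eq_of_mul_eq_mul_left hp.pos this)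
    have h2 : Cfsg.pResidual n K ≤ N := Transfer.pResidual_le_iff.mpr fun g hg =>
      Core.mem_of_pow_mem_of_coprime (N.pow_index_mem g) (hg.coprime_dvd_right h1).symm
    have h3 := h ((Cfsg.pResidual n K).map K.subtype) inferInstance fun e => hx1 (Subtype.ext
      (e.le ⟨x, Transfer.mem_pResidual_of_coprime (hx ▸ hn), rfl⟩))
    rw [Subgroup.card_map_of_injective K.subtype_injective, ← hK] at h3
    exact top_unique ((Subgroup.eq_top_of_le_card _ (Nat.le_of_dvd Nat.card_pos h3)).ge.trans h2)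
  · left
    have h1 : N ≤ pPrimeCore p K := Comp2.le_pPrimeCore ((Nat.coprime_comm.mp
      ((Nat.Prime.coprime_iff_not_dvd hp).mpr h7)))
    by_contra h0
    have h3 := h ((pPrimeCore p K).map K.subtype) inferInstance fun e =>
      h0 (le_bot_iff.mp (h1.trans ((Subgroup.map_eq_bot_iff_of_injective _ K.subtype_injective).mp e).le))
    exact hp.one_lt.ne' (Nat.Coprime.eq_one_of_dvd
      (Comp2.pPrimeCore_map_subtype_coprime p K).symm ((dvd_mul_right p n).trans h3))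

variable {G Ω : Type*} [Group G] [MulAction G Ω] (Z : Model G Ω (ZMod 3) 0)

theorem sig (x : ZMod 3) : Z.σ x = x := by
  rw [Z.σ_apply]; revert x; decide

theorem comm_eq : Z.i * Z.S 1 0 0 * Z.i⁻¹ * (Z.S 1 0 0)⁻¹ = Z.S 1 1 1 := by
  rw [Z.i_S, Z.S_inv, Z.S_mul, Z.S_eq_iff]; simp only [sig]; decide

include Z in
theorem dvd_card (N : Subgroup G) (hN : N.Normal) (h : N ≠ ⊥) : 7 * 72 ∣ Nat.card N := by
  haveI := Z.finite
  obtain ⟨⟨n, hn⟩, h1⟩ := Subgroup.ne_bot_iff_exists_ne_one.mp h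
  obtain ⟨c, hc⟩ : ∃ c : Ω, c ≠ n • c := by
    by_contra! H
    exact h1 (Subtype.ext (Z.faithful fun c => (H c).symm))
  have ht : ∀ d, ∃ k : N, k • Z.a = d := fun d => by
    by_cases hd : Z.a = d
    · exact ⟨1, by simpa using hd⟩
    obtain ⟨g, h2, h3⟩ := Z.exists_pair hc
    obtain ⟨k, h4, h5⟩ := Z.exists_pair hd
    refine ⟨⟨k * g⁻¹ * n * (k * g⁻¹)⁻¹, hN.conj_mem _ hn _⟩, ?_⟩
    change (k * g⁻¹ * n * (k * g⁻¹)⁻¹) • Z.a = d
    rw [mul_inv_rev, inv_inv, mul_smul, mul_smul g, inv_smul_eq_iff.mpr h4.symm, h2, mul_smul,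
      ← h3, mul_smul, inv_smul_smul, h5]
  haveI : IsPretransitive N Ω := ⟨fun x y => by
    obtain ⟨k, rfl⟩ := ht x
    obtain ⟨l, rfl⟩ := ht y
    exact ⟨l * k⁻¹, by simp [mul_smul]⟩⟩
  have h2 := (stabilizer N Z.a).card_mul_index
  rw [index_stabilizer_of_transitive, Z.card_Ω, ZMod.card] at h2
  haveI : Fact (Nat.Prime 2) := ⟨Nat.prime_two⟩
  obtain ⟨s, hs⟩ := exists_prime_orderOf_dvd_card' (G := N) 2 (by omega)
  obtain ⟨g, hg⟩ := Z.conj_i_of_invol (s := s) (fun e => by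
    rw [show s = 1 from Subtype.ext e, orderOf_one] at hs; omega)
    (by rw [← sq, ← hs]; exact_mod_cast pow_orderOf_eq_one s)
  have hi : Z.i ∈ N := by simpa [← hg, mul_assoc] using hN.conj_mem _ s.2 g⁻¹
  have h3 : Z.S 1 1 1 ∈ N := by
    rw [← comm_eq, mul_assoc, mul_assoc, ← mul_assoc (Z.S 1 0 0)]
    exact mul_mem hi (hN.conj_mem _ (inv_mem hi) _)
  have h4 := orderOf_dvd_natCard (⟨⟨_, hi⟩, Z.M_a _⟩ : stabilizer N Z.a)
  have h5 := orderOf_dvd_natCard (⟨⟨_, h3⟩, Z.S_a _ _ _⟩ : stabilizer N Z.a)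
  rw [← Subgroup.orderOf_coe, ← Subgroup.orderOf_coe] at h4 h5
  rw [Z.orderOf_i] at h4
  rw [Z.orderOf_S_eq_nine.mpr one_ne_zero] at h5
  omega

theorem not_mem : Z.S 0 1 0 ∉ commutator G := by
  haveI := Z.finite
  let K : Subgroup G :=
    { carrier := {g | ∃ x z, g = Z.S x (x ^ 2) z}
      one_mem' := ⟨0, 0, by simp [Z.S_zero]⟩
      mul_mem' := by
        rintro _ _ ⟨x, z, rfl⟩ ⟨x', z', rfl⟩
        refine ⟨_, _, (Z.S_mul ..).trans (Z.S_eq_iff.mpr ⟨rfl, ?_, rfl⟩)⟩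
        rw [sig]; revert x x'; decide
      inv_mem' := by
        rintro _ ⟨x, z, rfl⟩
        refine ⟨_, _, (Z.S_inv ..).trans (Z.S_eq_iff.mpr ⟨rfl, ?_, rfl⟩)⟩
        rw [sig]; revert x; decide }
  have h1 : Z.U.focalSubgroup ≤ K := Transfer.focalSubgroup_le_of_forall fun u hu g hg => by
    by_cases h0 : u = 1
    · simp [h0]
    obtain ⟨a, b, c, κ, rfl⟩ := (Z.stab g).mp (Z.mem_B_of_conj hu h0 (Z.U_le_B hg))
    obtain ⟨x, y, z, rfl⟩ := hu
    rw [mul_inv_rev, show ∀ s m u : G, s * m * u * (m⁻¹ * s⁻¹) = s * (m * u * m⁻¹) * s⁻¹ from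
      fun _ _ _ => by group, Z.M_S, Z.S_inv, Z.S_inv, Z.S_mul, Z.S_mul, Z.S_mul]
    refine ⟨_, _, Z.S_eq_iff.mpr ⟨rfl, ?_, rfl⟩⟩
    simp only [sig]
    have := κ.ne_zero
    generalize (κ : ZMod 3) = k at this
    clear hg h0
    revert a b x y k; decide
  intro h
  rw [← Transfer.commutator_inf_eq_focalSubgroup_of_hall (by
    rw [Z.card_U, Z.index_U, ZMod.card]; norm_num)] at h1
  obtain ⟨x, z, e⟩ := h1 ⟨h, Z.S_mem _ _ _⟩
  obtain ⟨rfl, e, -⟩ := Z.S_eq_iff.mp e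
  exact absurd e (by decide)

include Z in
theorem main : Nat.card (commutator G) = 504 ∧ IsSimpleGroup (commutator G) := by
  haveI := Z.finite
  have h1 := dvd_card Z (commutator G) inferInstance fun e => by
    have := e.le (Subgroup.commutator_mem_commutator (Subgroup.mem_top Z.i)
      (Subgroup.mem_top (Z.S 1 0 0)))
    rw [commutatorElement_def, comm_eq, Subgroup.mem_bot, Z.S_eq_one_iff] at this
    exact one_ne_zero this.1
  have h2 := (commutator G).card_mul_index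
  rw [Z.card_G, ZMod.card] at h2
  have h3 : (commutator G).index ≠ 1 := fun e =>
    not_mem Z (Subgroup.index_eq_one.mp e ▸ Subgroup.mem_top _)
  have h4 : Nat.card (commutator G) = 7 * 72 := by
    obtain ⟨k, hk⟩ := h1
    rw [hk] at h2 ⊢
    have : k * (commutator G).index = 3 := by nlinarith
    rcases (Nat.dvd_prime Nat.prime_three).mp (Dvd.intro _ this) with rfl | rfl <;> omega
  exact ⟨h4, simple_of_dvd (by norm_num) (by norm_num) h4 (dvd_card Z)⟩

end Cfsg.Agent.ULT.Ree3
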